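import Cfsg.Agent.H34.Defect
import Cfsg.Agent.H32.Residue

/-! Counting blocks against classes by a rank argument. -/

set_option autoImplicit false
set_option linter.unusedSectionVars false

open scoped ComplexConjugate
open Cfsg Cfsg.Agent.H32 Cfsg.Agent.H87

namespace Cfsg.Agent.H34

theorem card_le_of_mul_eq_one {F I J : Type*} [Field F] [Fintype I] [Fintype J] [DecidableEq I]
    (A : Matrix I J F) (C : Matrix J I F) (h : A * C = 1) : Fintype.card I ≤ Fintype.card J := by
  calc Fintype.card I = (A * C).rank := by rw [h, Matrix.rank_one]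
    _ ≤ A.rank := Matrix.rank_mul_le_left A C
    _ ≤ Fintype.card J := Matrix.rank_le_card_width A

variable {G : Type*} [Group G] [Finite G] {M : Ideal AlgInt} {p : ℕ} [hMm : M.IsMaximal]
  [hp : Fact p.Prime]

/-- If every class on which the idempotent of a block of the family and the central character of
a block of the family are both non-zero belongs to the family of classes, there are at most as
many blocks as classes. -/
theorem card_blocks_le (hM : IsPModular p M) (P : Set (IrrCharacter G) → Prop)
    (Q : ConjClasses G → Prop)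
    (h : ∀ B B', IsPBlock M B → P B → IsPBlock M B' → P B' → ∀ χ ∈ B', ∀ g,
      blockCoeff B g ∉ locMax M → centralChar (χ : G → ℂ) g ∉ locMax M → Q (ConjClasses.mk g)) :
    Nat.card {B : Set (IrrCharacter G) // IsPBlock M B ∧ P B} ≤ Nat.card {C // Q C} := by
  classical
  have := Fintype.ofFinite G
  have := Fintype.ofFinite {B : Set (IrrCharacter G) // IsPBlock M B ∧ P B}
  choose ch hch using fun B : {B : Set (IrrCharacter G) // IsPBlock M B ∧ P B} =>
    IsPBlock.nonempty B.2.1
  rw [Nat.card_eq_fintype_card, Nat.card_eq_fintype_card]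
  refine card_le_of_mul_eq_one (F := Res M)
    (Matrix.of fun B C => redC M (blockCoeff B.1 (Quotient.out C.1)))
    (Matrix.of fun C B => redC M (centralChar (ch B : G → ℂ) (Quotient.out C.1))) ?_
  ext B B'
  have h1 := congrArg (redC M) (om_eq_sum_classes (irr_isClassFunction (ch B'))
    (blockCoeff_isClassFunction B.1))
  rw [redC_sum _ (fun C : ConjClasses G => blockCoeff B.1 (Quotient.out C) *
      centralChar (ch B' : G → ℂ) (Quotient.out C))
      fun C _ => mul_mem (blockCoeff_mem hM B.2.1 _) (centralChar_mem _ _),
    ← Finset.sum_filter_of_ne (p := Q), Finset.sum_subtype (p := Q) _ (by simp)] at h1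
  · simp only [Matrix.mul_apply, Matrix.of_apply,
      ← redC_mul (blockCoeff_mem hM B.2.1 _) (centralChar_mem _ _)]
    rw [← h1, Matrix.one_apply]
    split_ifs with H
    · subst H; rw [om_blockCoeff_of_mem (hch B), redC_one]
    · rw [om_blockCoeff_of_not_mem fun H' =>
        H (Subtype.ext (IsPBlock.eq_of_mem B.2.1 B'.2.1 H' (hch B'))), redC_zero]
  · intro C _ hC
    rw [Ne, redC_eq_zero_iff (mul_mem (blockCoeff_mem hM B.2.1 _) (centralChar_mem _ _)),
      mul_mem_locMax_iff (blockCoeff_mem hM B.2.1 _) (centralChar_mem _ _), not_or] at hC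
    have := h _ _ B.2.1 B.2.2 B'.2.1 B'.2.2 _ (hch B') _ hC.1 hC.2
    rwa [show ConjClasses.mk (Quotient.out C) = C from Quotient.out_eq C] at this

end Cfsg.Agent.H34
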