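import Cfsg.Agent.H34.JBF1

/-! Jordan's counting argument with beams. -/

set_option autoImplicit false

namespace Cfsg.Agent.H34

open Module Subgroup
open scoped Pointwise

variable {G : Type*} [Group G] {F : Type*} [Field F] {U : Type*} [AddCommGroup U] [Module F U]

theorem card_dvd_sum_of_stab {X : Type*} [MulAction G X] [Fintype X] (f : X → ℕ)
    (hf : ∀ (g : G) x, f (g • x) = f x) (hd : ∀ x, Nat.card (MulAction.stabilizer G x) ∣ f x) :
    Nat.card G ∣ ∑ x, f x := by
  classical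
  have := Fintype.ofFinite (MulAction.orbitRel.Quotient G X)
  rw [← Finset.sum_fiberwise (g := (Quotient.mk'' : X → MulAction.orbitRel.Quotient G X))]
  refine Finset.dvd_sum fun q _ => ?_
  induction q using Quotient.inductionOn' with
  | h x =>
  rw [Finset.sum_const_nat (m := f x) fun y hy => by
    obtain ⟨g, rfl⟩ := Quotient.exact' (Finset.mem_filter.1 hy).2
    exact hf g x, ← (MulAction.stabilizer G x).index_mul_card, MulAction.index_stabilizer]
  refine mul_dvd_mul (dvd_of_eq ?_) (hd x)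
  rw [← Set.ncard_coe_finset]
  congr 1
  ext y
  simp [MulAction.orbitRel_apply, Quotient.eq'']

theorem conj_smul_eq_iff {A : Subgroup G} {g : G} :
    MulAut.conj g • A = A ↔ g ∈ normalizer (A : Set G) := conjAct_pointwise_smul_iff

theorem card_dvd_sum_subgroup [Fintype (Subgroup G)] (f : Subgroup G → ℕ)
    (hf : ∀ (g : G) A, f (MulAut.conj g • A) = f A)
    (hd : ∀ A : Subgroup G, Nat.card (normalizer (A : Set G)) ∣ f A) : Nat.card G ∣ ∑ A, f A := by
  let := MulAction.compHom (Subgroup G) (MulAut.conj : G →* MulAut G)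
  refine card_dvd_sum_of_stab f hf fun A => ?_
  rw [show MulAction.stabilizer G A = normalizer (A : Set G) from Subgroup.ext fun g => conj_smul_eq_iff]
  exact hd A

theorem card_dvd_mul_ncard [Finite G] {W : Set G} {L : ℕ} (hW : ∀ g x, g * x * g⁻¹ ∈ W ↔ x ∈ W)
    (hd : ∀ x ∈ W, Nat.card (centralizer {x}) ∣ L) : Nat.card G ∣ L * W.ncard := by
  classical
  have := Fintype.ofFinite G
  let := MulAction.compHom G (MulAut.conj : G →* MulAut G)
  have := card_dvd_sum_of_stab (G := G) (fun x : G => if x ∈ W then L else 0)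
    (fun g x => if_congr (hW g x) rfl rfl) fun x => by
      split_ifs with h
      · rw [show MulAction.stabilizer G x = centralizer {x} from Subgroup.ext fun g =>
          mul_inv_eq_iff_eq_mul.trans mem_centralizer_singleton_iff.symm]
        exact hd x h
      · exact dvd_zero _
  rwa [← Finset.sum_filter, Finset.sum_const_nat (m := L) fun _ _ => rfl, mul_comm,
    ← Set.ncard_coe_finset, Finset.coe_filter_univ] at this

theorem card_dvd_ncard_of_mul_mem [Finite G] {Z : Set G} {A : Subgroup G}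
    (h : ∀ z ∈ Z, ∀ a ∈ A, z * a ∈ Z) : Nat.card A ∣ Z.ncard := by
  have h1 := QuotientGroup.card_preimage_mk A ((↑) '' Z)
  rw [show QuotientGroup.mk ⁻¹' ((↑) '' Z : Set (G ⧸ A)) = Z from Set.Subset.antisymm (by
    rintro x ⟨z, hz, e⟩
    simpa using h z hz _ (QuotientGroup.eq.1 e)) (Set.subset_preimage_image _ _)] at h1
  exact ⟨_, h1⟩

variable (F) in
/-- `H` has a large abelian subgroup -/
def JGood (J : ℕ) (H : Subgroup G) : Prop := ∃ T ≤ H, AbP F T ∧ T.relIndex H ≤ J

/-- the setting of Jordan's counting argument -/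
structure JSet (σ : Representation F G U) (J ν : ℕ) : Prop where
  ex : ∀ g : G, ∃ u : U, ∀ h, σ h u = u ↔ h * g = g * h
  good : ∀ g ∉ σ.ker, JGood F J (centralizer {g})
  nor : ∀ A : Subgroup G, AbP F A → (centralizer (A : Set G)).relIndex (normalizer (A : Set G)) ≤ ν
  scal : ∀ g : G, (centralizer {g}).relIndex
    ((centralizer {(g : G ⧸ σ.ker)}).comap (QuotientGroup.mk' σ.ker)) ≤ ν

/-- largest beam in `H` -/
def mbeam (σ : Representation F G U) (M : ℕ) (H : Subgroup G) : Subgroup G :=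
  sSup {B | Beam σ M B ∧ B ≤ H}

/-- maximal non-scalar beam -/
def MaxB (σ : Representation F G U) (M : ℕ) (A : Subgroup G) : Prop :=
  Beam σ M A ∧ ¬ A ≤ σ.ker ∧ ∀ B, Beam σ M B → A ≤ B → B ≤ A

/-- elements centralising a non-scalar beam inside `A` -/
def Zs (σ : Representation F G U) (M : ℕ) (A : Subgroup G) : Set G :=
  {g | ∃ B, Beam σ M B ∧ ¬ B ≤ σ.ker ∧ B ≤ A ∧ B ≤ centralizer {g}}

/-- generic elements of the centraliser of `A` -/
def GenS (σ : Representation F G U) (A : Subgroup G) : Set G :=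
  {t | t ∉ σ.ker ∧ A ≤ centralizer {t} ∧ centralizer {t} ≤ centralizer (A : Set G)}

variable {σ : Representation F G U} {A A' B H : Subgroup G} {M J ν : ℕ} {g : G}

theorem mbeam_le : mbeam σ M H ≤ H := sSup_le fun _ h => h.2

theorem Beam.le_mbeam (h : Beam σ M B) (hB : B ≤ H) : B ≤ mbeam σ M H := le_sSup ⟨h, hB⟩

theorem AbP.le_centralizer (h : AbP F A) (hB : B ≤ A) : A ≤ centralizer (B : Set G) :=
  fun x hx y hy => h.1 y (hB hy) x hx

theorem mem_centralizer_of_le {x : G} (h : A ≤ centralizer {x}) : x ∈ centralizer (A : Set G) :=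
  fun _ hy => mem_centralizer_singleton_iff.1 (h hy)

theorem conj_le_ker (g : G) : MulAut.conj g • A ≤ σ.ker ↔ A ≤ σ.ker := by
  conv_lhs => rw [← Normal.conj_smul_eq_self g σ.ker, pointwise_smul_le_pointwise_smul_iff]

theorem MaxB.conj (h : MaxB σ M A) (g : G) : MaxB σ M (MulAut.conj g • A) :=
  ⟨h.1.conj g, fun e => h.2.1 ((conj_le_ker g).1 e), fun B hB e => by
    rw [pointwise_smul_subset_iff, ← map_inv] at e
    rw [subset_pointwise_smul_iff, ← map_inv]
    exact h.2.2 _ (hB.conj _) e⟩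

theorem MaxB.conj_iff (g : G) : MaxB σ M (MulAut.conj g • A) ↔ MaxB σ M A :=
  ⟨fun h => by simpa using h.conj g⁻¹, fun h => h.conj g⟩

theorem conj_mem_Zs {x : G} (h : x ∈ Zs σ M A) (g : G) :
    g * x * g⁻¹ ∈ Zs σ M (MulAut.conj g • A) := by
  obtain ⟨B, h1, h2, h3, h4⟩ := h
  refine ⟨_, h1.conj g, fun e => h2 ((conj_le_ker g).1 e),
    pointwise_smul_le_pointwise_smul_iff.2 h3, ?_⟩
  rintro _ ⟨y, hy, rfl⟩
  have := mem_centralizer_singleton_iff.1 (h4 hy)
  simp [mem_centralizer_singleton_iff, mul_assoc]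
  rw [← mul_assoc, this, mul_assoc]

theorem JSet.central (h : JSet σ J ν) {z : G} (hz : z ∈ σ.ker) (g : G) : z * g = g * z := by
  obtain ⟨u, hu⟩ := h.ex g
  exact (hu z).1 (by rw [hz]; rfl)

variable [Finite G]

theorem ncard_Zs_conj (g : G) : (Zs σ M (MulAut.conj g • A)).ncard = (Zs σ M A).ncard := by
  have h : ∀ A (g : G), (Zs σ M A).ncard ≤ (Zs σ M (MulAut.conj g • A)).ncard := fun A g =>
    Set.ncard_le_ncard_of_injOn (MulAut.conj g) (fun x hx => conj_mem_Zs hx g)
      (MulAut.conj g).injective.injOn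
  exact le_antisymm (by simpa using h (MulAut.conj g • A) g⁻¹) (h A g)

theorem JGood.mono {K : Subgroup G} (h : JGood F J H) (hK : K ≤ H) : JGood F J K := by
  obtain ⟨T, -, h2, h3⟩ := h
  exact ⟨T ⊓ K, inf_le_right, h2.mono inf_le_left, by
    rw [inf_relIndex_right]
    exact (relIndex_le_of_le_right hK index_ne_zero_of_finite).trans h3⟩

theorem JSet.good' (h : JSet σ J ν) (hB : ¬ B ≤ σ.ker) : JGood F J (centralizer (B : Set G)) := by
  obtain ⟨b, h1, h2⟩ := SetLike.not_le_iff_exists.1 hB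
  exact (h.good b h2).mono (centralizer_le (by simpa using h1))

variable [IsAlgClosed F] [FiniteDimensional F U]

theorem JSet.beam_mbeam (h : JSet σ J ν) (hM : J < M) (hH : JGood F J H) :
    Beam σ M (mbeam σ M H) := by
  obtain ⟨T, -, h2, h3⟩ := hH
  have key : ∀ B, Beam σ M B → B ≤ H → ∀ g, (∀ x ∈ B ⊓ T, x * g = g * x) → ∀ x ∈ B, x * g = g * x :=
    fun B hB hBH g hg x hx => by
      obtain ⟨u, hu⟩ := h.ex g
      refine (hu x).1 (fix_of_eigV (S := (B ⊓ T : Subgroup G)) hB.1 Set.inter_subset_left hx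
        (fun w hw h4 => ?_) fun y hy => (hu y).2 (hg y hy))
      by_contra h5
      have h6 := (hB.2 w hw fun e => h5 (e hx)).trans
        (relIndex_le_of_le_left (H := B ⊓ T) h4 index_ne_zero_of_finite)
      rw [inf_relIndex_left] at h6
      have := relIndex_le_of_le_right (H := T) hBH index_ne_zero_of_finite
      omega
  exact beam_sSup (fun _ hA => hA.1) fun A hA B hB x hx y hy => key A hA.1 hA.2 y (fun x hx =>
    (key B hB.1 hB.2 x (fun y hy => h2.1 y hy.2 x hx.2) y hy).symm) x hx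

omit [IsAlgClosed F] in
theorem JGood.relIndex_mbeam (hH : JGood F J H) (hM : 0 < M) :
    (mbeam σ M H).relIndex H ≤ M ^ finrank F U * J := by
  obtain ⟨T, h1, h2, h3⟩ := hH
  obtain ⟨A, a1, a2, a3⟩ := exists_beam (σ := σ) h2 hM
  refine (relIndex_le_of_le_left (a2.le_mbeam (a1.trans h1)) index_ne_zero_of_finite).trans ?_
  rw [← relIndex_mul_relIndex _ _ _ a1 h1]
  exact Nat.mul_le_mul a3 h3

theorem JSet.maxB (h : JSet σ J ν) (hM : J < M) (h1 : Beam σ M B) (h2 : ¬ B ≤ σ.ker) :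
    MaxB σ M (mbeam σ M (centralizer (B : Set G))) ∧ B ≤ mbeam σ M (centralizer (B : Set G)) := by
  have h3 := h1.le_mbeam (h1.1.le_centralizer le_rfl)
  exact ⟨⟨h.beam_mbeam hM (h.good' h2), fun e => h2 (h3.trans e), fun C hC e =>
    hC.le_mbeam (hC.1.le_centralizer (h3.trans e))⟩, h3⟩

theorem JSet.eq_mbeam (h : JSet σ J ν) (hM : J < M) (hA : MaxB σ M A) (h2 : ¬ B ≤ σ.ker)
    (h3 : B ≤ A) : A = mbeam σ M (centralizer (B : Set G)) := by
  have h4 := hA.1.le_mbeam (hA.1.1.le_centralizer h3)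
  exact le_antisymm h4 (hA.2.2 _ (h.beam_mbeam hM (h.good' h2)) h4)

theorem JSet.uniq (h : JSet σ J ν) (hM : J < M) (hA : MaxB σ M A) (hA' : MaxB σ M A')
    (hg : g ∉ σ.ker) (h1 : g ∈ Zs σ M A) (h2 : g ∈ Zs σ M A') : A = A' := by
  obtain ⟨B, b1, b2, b3, b4⟩ := h1
  obtain ⟨C, c1, c2, c3, c4⟩ := h2
  obtain ⟨d1, d2⟩ := h.maxB hM (h.beam_mbeam hM (h.good g hg)) fun e => b2 ((b1.le_mbeam b4).trans e)
  rw [h.eq_mbeam hM hA b2 b3, h.eq_mbeam hM hA' c2 c3,
    ← h.eq_mbeam hM d1 b2 ((b1.le_mbeam b4).trans d2), ← h.eq_mbeam hM d1 c2 ((c1.le_mbeam c4).trans d2)]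

theorem JSet.relIndex_normalizer (h : JSet σ J ν) (hM : J < M) (hA : MaxB σ M A) :
    A.relIndex (normalizer (A : Set G)) ≤ M ^ finrank F U * J * ν := by
  rw [← relIndex_mul_relIndex _ _ _ (hA.1.1.le_centralizer le_rfl) (centralizer_le_normalizer _)]
  refine Nat.mul_le_mul ?_ (h.nor A hA.1.1)
  conv_lhs => lhs; rw [h.eq_mbeam hM hA hA.2.1 le_rfl]
  exact (h.good' hA.2.1).relIndex_mbeam (by omega)

theorem JSet.card_genS (h : JSet σ J ν) (hM : J < M) (hd : 2 * finrank F U ≤ M) (hA : MaxB σ M A) :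
    Nat.card (centralizer (A : Set G)) ≤ 2 * J * (GenS σ A).ncard := by
  obtain ⟨T, h1, h2, h3⟩ := h.good' hA.2.1
  have h4 : Beam σ 0 (sSup {T, A}) := beam_sSup (by
    rintro _ (rfl | rfl)
    exacts [⟨h2, fun _ _ _ => Nat.zero_le _⟩, hA.1.mono (Nat.zero_le _)]) (by
    rintro _ (rfl | rfl) _ (rfl | rfl) x hx y hy
    exacts [h2.1 x hx y hy, (h1 hx y hy).symm, h1 hy x hx, hA.1.1.1 x hx y hy])
  rw [sSup_pair] at h4
  have h5 : T ⊔ A ≤ centralizer (A : Set G) := h4.1.le_centralizer le_sup_right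
  have h6 := (card_generic hA.1 (le_sup_right (a := T)) hd (by omega)).trans
    (Nat.mul_le_mul_left 2 (Set.ncard_le_ncard (t := GenS σ A) fun t ht => by
      have key : ∀ s ∈ A, ∀ u, σ t u = u → σ s u = u := fun s hs u hu =>
        fix_of_eigV (S := {t}) h4.1 (by simpa using ht.1) (le_sup_right (a := T) hs)
          (fun w hw e => ht.2 w hw (e t rfl) hs) (by simpa using hu)
      refine ⟨fun e => hA.2.1 fun s hs => LinearMap.ext fun u => key s hs u (by rw [e]; rfl),
        fun s hs => mem_centralizer_singleton_iff.2 (h5 ht.1 s hs), fun g hg s hs => ?_⟩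
      obtain ⟨u, hu⟩ := h.ex g
      exact (hu s).1 (key s hs u ((hu t).2 (mem_centralizer_singleton_iff.1 hg).symm))))
  rw [← relIndex_bot_left, ← relIndex_mul_relIndex _ _ _ bot_le h5, relIndex_bot_left]
  have := (relIndex_le_of_le_left (le_sup_left (b := A)) index_ne_zero_of_finite).trans h3
  nlinarith

end Cfsg.Agent.H34
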