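import Cfsg.Agent.H34.JBF2

/-! Jordan's counting argument: the class equation and the pigeonhole on scales. -/

set_option autoImplicit false

namespace Cfsg.Agent.H34

open Module Subgroup
open scoped Pointwise Nat

variable {G : Type*} [Group G] {F : Type*} [Field F] {U : Type*} [AddCommGroup U] [Module F U]

/-- non-scalar elements centralising a non-scalar beam -/
def Ys (σ : Representation F G U) (M : ℕ) : Set G :=
  {g | g ∉ σ.ker ∧ ∃ B, Beam σ M B ∧ ¬ B ≤ σ.ker ∧ B ≤ centralizer {g}}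

variable {σ : Representation F G U} {M J ν K : ℕ} [Finite G] [IsAlgClosed F] [FiniteDimensional F U]

theorem JSet.dvd_rest (h : JSet σ J ν) (hM : J < M) (hK : M ^ finrank F U * J * ν ≤ K) :
    Nat.card G ∣ K ! * {g | g ∉ σ.ker ∧ g ∉ Ys σ M}.ncard := by
  set W := {g | g ∉ σ.ker ∧ g ∉ Ys σ M}
  have h1 : ∀ g x, x ∈ W → g * x * g⁻¹ ∈ W := fun g x hx => by
    have h2 : g * x * g⁻¹ ∉ σ.ker := fun e => hx.1 (by
      simpa only [inv_mul_cancel_left] using σ.normal_ker.mem_comm_iff.1 e)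
    refine ⟨h2, fun ⟨_, B, b1, b2, b3⟩ => hx.2 ⟨hx.1, ?_⟩⟩
    obtain ⟨C, c1, c2, -, c3⟩ := conj_mem_Zs (⟨B, b1, b2, le_rfl, b3⟩ : _ ∈ Zs σ M B) g⁻¹
    exact ⟨C, c1, c2, by simpa [mul_assoc] using c3⟩
  have h2 : QuotientGroup.mk ⁻¹' ((↑) '' W : Set (G ⧸ σ.ker)) = W := Set.Subset.antisymm (by
    rintro x ⟨z, hz, e⟩
    have h3 := QuotientGroup.eq.1 e
    refine ⟨fun e => hz.1 (by simpa using mul_mem e (inv_mem h3)), fun ⟨_, B, b1, b2, b3⟩ =>
      hz.2 ⟨hz.1, B, b1, b2, fun y hy => mem_centralizer_singleton_iff.2 ?_⟩⟩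
    have h4 : Commute y x := mem_centralizer_singleton_iff.1 (b3 hy)
    have h5 : Commute y (z⁻¹ * x) := (h.central h3 y).symm
    simpa using (h4.mul_right h5.inv_right).eq) (Set.subset_preimage_image _ _)
  have h3 := QuotientGroup.card_preimage_mk σ.ker ((↑) '' W)
  rw [h2] at h3
  have h4 := card_dvd_mul_ncard (W := ((↑) '' W : Set (G ⧸ σ.ker))) (L := K !) (fun g x => by
    have key : ∀ g x : G ⧸ σ.ker, x ∈ ((↑) '' W : Set _) → g * x * g⁻¹ ∈ ((↑) '' W : Set _) := by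
      rintro ⟨g⟩ _ ⟨x, hx, rfl⟩
      exact ⟨_, h1 g x hx, rfl⟩
    exact ⟨fun e => by simpa [mul_assoc] using key g⁻¹ _ e, key g x⟩) (by
    rintro _ ⟨x, hx, rfl⟩
    refine Nat.dvd_factorial Nat.card_pos (le_trans ?_ hK)
    have h5 := relIndex_ker (K := (centralizer {(x : G ⧸ σ.ker)}).comap (QuotientGroup.mk' σ.ker))
      (QuotientGroup.mk' σ.ker)
    rw [map_comap_eq_self_of_surjective (QuotientGroup.mk'_surjective _), QuotientGroup.ker_mk'] at h5
    rw [← h5, ← relIndex_mul_relIndex _ (centralizer {x}) (comap _ _)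
      (fun z hz => mem_centralizer_singleton_iff.2 (h.central hz x))
      fun z hz => mem_comap.2 (mem_centralizer_singleton_iff.2
        (congrArg QuotientGroup.mk (mem_centralizer_singleton_iff.1 hz)))]
    refine Nat.mul_le_mul ((relIndex_le_of_le_left ?_ index_ne_zero_of_finite).trans
      ((h.good x hx.1).relIndex_mbeam (σ := σ) (M := M) (by omega))) (h.scal x)
    by_contra h6
    exact hx.2 ⟨hx.1, _, h.beam_mbeam hM (h.good x hx.1), h6, mbeam_le⟩)
  rw [← Nat.card_coe_set_eq, h3, ← σ.ker.card_mul_index, mul_left_comm]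
  exact mul_dvd_mul_left _ h4

theorem JSet.step (h : JSet σ J ν) (hM : J < M) (hd : 2 * finrank F U ≤ M)
    (hK : M ^ finrank F U * J * ν ≤ K) :
    (∃ A : Subgroup G, (∀ x ∈ A, ∀ y ∈ A, x * y = y * x) ∧ A.index ≤ K !) ∨
      ν * (2 * J) * (Ys σ (M + 2 * J * K !)).ncard + Nat.card G ≤ ν * (2 * J) * (Ys σ M).ncard := by
  classical
  have := Fintype.ofFinite G
  have := Fintype.ofFinite (Subgroup G)
  set 𝓐 := Finset.univ.filter (MaxB σ M)
  have h𝓐 : ∀ A, A ∈ 𝓐 ↔ MaxB σ M A := fun A => by simp [𝓐]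
  have hsum : ∀ 𝓢 ⊆ 𝓐, ∀ (f : Subgroup G → Set G), (∀ A ∈ 𝓐, f A ⊆ Zs σ M A \ σ.ker) →
      ∑ A ∈ 𝓢, (f A).ncard = (⋃ A ∈ 𝓢, f A).ncard := fun 𝓢 h1 f h2 => by
    simp only [Set.ncard_eq_toFinset_card']
    rw [← Finset.card_biUnion fun A hA B hB e => Finset.disjoint_left.2 fun x hx hx' => e <| by
      rw [Set.mem_toFinset] at hx hx'
      exact h.uniq hM ((h𝓐 _).1 (h1 hA)) ((h𝓐 _).1 (h1 hB)) (h2 A (h1 hA) hx).2
        (h2 A (h1 hA) hx).1 (h2 B (h1 hB) hx').1]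
    congr 1
    ext x
    simp
  have hY : ∑ A ∈ 𝓐, (Zs σ M A).ncard = (Ys σ M).ncard + 𝓐.card * Nat.card σ.ker := by
    rw [show Ys σ M = ⋃ A ∈ 𝓐, Zs σ M A \ σ.ker from Set.ext fun x => by
      simp only [Set.mem_iUnion, h𝓐]
      exact ⟨fun ⟨h1, B, b1, b2, b3⟩ => ⟨_, (h.maxB hM b1 b2).1, ⟨B, b1, b2, (h.maxB hM b1 b2).2, b3⟩, h1⟩,
        fun ⟨A, _, ⟨B, b1, b2, _, b3⟩, h1⟩ => ⟨h1, B, b1, b2, b3⟩⟩,
      ← hsum 𝓐 subset_rfl _ fun _ _ => subset_rfl, ← smul_eq_mul, ← Finset.sum_const,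
      ← Finset.sum_add_distrib]
    refine Finset.sum_congr rfl fun A hA => (Set.ncard_sdiff_add_ncard_of_subset fun z hz => ?_).symm
    exact ⟨A, ((h𝓐 A).1 hA).1, ((h𝓐 A).1 hA).2.1, le_rfl, fun y _ =>
      mem_centralizer_singleton_iff.2 (h.central hz y).symm⟩
  have hG : Nat.card G = Nat.card σ.ker + (Ys σ M).ncard + {g | g ∉ σ.ker ∧ g ∉ Ys σ M}.ncard := by
    rw [← Set.ncard_add_ncard_compl (σ.ker : Set G), add_assoc,
      ← Set.ncard_inter_add_ncard_sdiff_eq_ncard (σ.ker : Set G)ᶜ (Ys σ M),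
      Set.inter_eq_right.2 fun _ h => h.1]
    rfl
  have d1 : Nat.card G ∣ K ! * ∑ A ∈ 𝓐, (Zs σ M A).ncard := by
    have := card_dvd_sum_subgroup (fun A => if MaxB σ M A then K ! * (Zs σ M A).ncard else 0)
      (fun g A => if_congr (MaxB.conj_iff g) (by rw [ncard_Zs_conj]) rfl) fun A => by
        split_ifs with hA
        · rw [← relIndex_bot_left, ← relIndex_mul_relIndex _ _ _ bot_le le_normalizer,
            relIndex_bot_left, mul_comm]
          refine mul_dvd_mul (Nat.dvd_factorial (Nat.pos_of_ne_zero index_ne_zero_of_finite)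
            ((h.relIndex_normalizer hM hA).trans hK)) (card_dvd_ncard_of_mul_mem ?_)
          rintro z ⟨B, b1, b2, b3, b4⟩ a ha
          exact ⟨B, b1, b2, b3, fun y hy => mem_centralizer_singleton_iff.2
            (Commute.mul_right (mem_centralizer_singleton_iff.1 (b4 hy)) (hA.1.1.1 y (b3 hy) a ha))⟩
        · exact dvd_zero _
    rwa [← Finset.sum_filter, ← Finset.mul_sum] at this
  have d2 := h.dvd_rest hM hK
  have hφ : 0 < Nat.card σ.ker := Nat.card_pos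
  have hL := K.factorial_pos
  rcases e : 𝓐.card with _ | _ | a
  · refine Or.inl ⟨σ.ker, fun x hx y _ => h.central hx y, Nat.le_of_dvd hL ?_⟩
    rw [hY, e, zero_mul, add_zero] at d1
    have d3 := dvd_mul_left (Nat.card G) (K !)
    conv at d3 => rhs; rw [hG, mul_add, mul_add]
    rw [Nat.dvd_add_left d2, Nat.dvd_add_left d1, ← σ.ker.index_mul_card] at d3
    exact Nat.dvd_of_mul_dvd_mul_right hφ d3
  · obtain ⟨A, hA⟩ := Finset.card_eq_one.1 e
    have h1 := (h𝓐 A).1 (hA ▸ Finset.mem_singleton_self A)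
    refine Or.inl ⟨A, h1.1.1.1, ?_⟩
    have h2 : normalizer (A : Set G) = ⊤ := eq_top_iff.2 fun g _ =>
      conj_smul_eq_iff.1 (Finset.mem_singleton.1 (hA ▸ (h𝓐 _).2 (h1.conj g)))
    rw [← relIndex_top_right, ← h2]
    exact ((h.relIndex_normalizer hM h1).trans hK).trans K.self_le_factorial
  right
  have d3 : Nat.card G ≤ K ! * ((a + 1) * Nat.card σ.ker) := by
    refine Nat.le_of_dvd (by positivity) ((Nat.dvd_add_right (dvd_mul_left _ (K !))).1 ?_)
    refine (dvd_add d1 d2).trans (dvd_of_eq ?_)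
    rw [hY, e]
    conv_rhs => rw [hG]
    ring
  have hgen : ∀ A ∈ 𝓐, GenS σ A ⊆ Zs σ M A \ σ.ker := fun A hA t ht =>
    ⟨⟨A, ((h𝓐 A).1 hA).1, ((h𝓐 A).1 hA).2.1, le_rfl, ht.2.1⟩, ht.1⟩
  set M' := M + 2 * J * (K !)
  let P : Subgroup G → Prop := fun A => MaxB σ M A ∧ ∀ B, Beam σ M' B → B ≤ A → B ≤ σ.ker
  have hP : ∀ g A, P A → P (MulAut.conj g • A) := fun g A hA => ⟨hA.1.conj g, fun B hB e => by
    rw [subset_pointwise_smul_iff, ← map_inv] at e
    exact (conj_le_ker _).1 (hA.2 _ (hB.conj _) e)⟩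
  obtain ⟨A₀, h0⟩ : ∃ A, P A := by
    by_contra! h1
    have h2 : ∀ A ∈ 𝓐, M' * Nat.card σ.ker ≤ 2 * J * (GenS σ A).ncard := fun A hA => by
      obtain ⟨B, b1, b2, b3⟩ : ∃ B, Beam σ M' B ∧ B ≤ A ∧ ¬ B ≤ σ.ker := by
        simpa [P, (h𝓐 A).1 hA] using h1 A
      obtain ⟨w, w1, w2⟩ : ∃ w, EigV σ B w ∧ ¬ B ≤ fixS σ w := by
        by_contra! h3
        exact b3 fun s hs => LinearMap.ext fun u =>
          fix_of_eigV b1.1 (Set.empty_subset _) hs (fun w hw _ => h3 w hw hs) (by simp)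
      refine le_trans ?_ (h.card_genS hM hd ((h𝓐 A).1 hA))
      rw [← relIndex_bot_left (centralizer _), ← relIndex_mul_relIndex _ σ.ker (centralizer _) bot_le
        fun z hz y _ => (h.central hz y).symm, relIndex_bot_left, mul_comm]
      exact Nat.mul_le_mul_left _ (((b1.2 w w1 w2).trans (relIndex_le_of_le_left
        (fun z hz => by rw [mem_fixS, hz]; rfl) index_ne_zero_of_finite)).trans
        (relIndex_le_of_le_right (b2.trans (((h𝓐 A).1 hA).1.1.le_centralizer le_rfl))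
          index_ne_zero_of_finite))
    have h3 := Finset.card_nsmul_le_sum _ _ _ h2
    rw [← Finset.mul_sum, hsum 𝓐 subset_rfl _ hgen, e, smul_eq_mul] at h3
    have h4 := h3.trans (Nat.mul_le_mul_left _ ((Set.ncard_le_card _).trans d3))
    have : 0 < M * Nat.card σ.ker := Nat.mul_pos (by omega) hφ
    simp only [M'] at h4
    nlinarith [Nat.zero_le (a * (M * Nat.card σ.ker)), Nat.zero_le (J * K ! * Nat.card σ.ker)]
  have h1 := card_dvd_sum_subgroup (fun A => if P A then Nat.card (normalizer (A : Set G)) else 0)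
    (fun g A => if_congr ⟨fun e => by simpa using hP g⁻¹ _ e, hP g A⟩ (by
      rw [← card_map_of_injective (K := normalizer (A : Set G)) (f := (MulAut.conj g).toMonoidHom)
        (MulAut.conj g).injective]
      exact congrArg (fun K : Subgroup G => Nat.card K) (map_equiv_normalizer_eq A _).symm) rfl)
    fun A => by split_ifs <;> simp
  rw [← Finset.sum_filter] at h1
  have h2 := (Nat.le_of_dvd (Finset.sum_pos (fun _ _ => Nat.card_pos) ⟨A₀, by simpa using h0⟩) h1).trans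
    (Finset.sum_le_sum (g := fun A => ν * (2 * J) * (GenS σ A).ncard) fun A hA => by
      have h3 := (Finset.mem_filter.1 hA).2.1
      rw [← relIndex_bot_left, ← relIndex_mul_relIndex _ _ _ bot_le (centralizer_le_normalizer _),
        relIndex_bot_left, mul_comm, mul_assoc]
      exact Nat.mul_le_mul (h.nor A h3.1.1) (h.card_genS hM hd h3))
  have h3 : Finset.univ.filter P ⊆ 𝓐 := fun A hA => (h𝓐 A).2 (Finset.mem_filter.1 hA).2.1
  rw [← Finset.mul_sum, hsum _ h3 _ hgen] at h2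
  refine (Nat.add_le_add_left h2 _).trans ?_
  rw [← mul_add, ← Set.ncard_union_eq (Set.disjoint_left.2 ?_)]
  · refine Nat.mul_le_mul_left _ (Set.ncard_le_ncard (Set.union_subset
      (fun x ⟨h4, B, b1, b2⟩ => ⟨h4, B, b1.mono (Nat.le_add_right _ _), b2⟩)
      (Set.iUnion₂_subset fun A hA x hx => ?_)))
    obtain ⟨⟨B, b1, b2, -, b3⟩, b4⟩ := hgen A (h3 hA) hx
    exact ⟨b4, B, b1, b2, b3⟩
  · rintro x ⟨-, B, b1, b2, b3⟩ hx
    obtain ⟨A, hA, hx⟩ := Set.mem_iUnion₂.1 hx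
    have h4 := (Finset.mem_filter.1 hA).2
    exact b2 (h4.2 B b1 (h.eq_mbeam hM h4.1 h4.1.2.1 le_rfl ▸
      (b1.mono (Nat.le_add_right _ _)).le_mbeam (b3.trans hx.2.2)))

/-- the bound produced by the pigeonhole on scales -/
def jbnd (d J ν : ℕ) : ℕ → ℕ → ℕ
  | 0, _ => 0
  | k + 1, M => (M ^ d * J * ν)! + jbnd d J ν k (M + 2 * J * (M ^ d * J * ν)!)

theorem JSet.exists_abelian (h : JSet σ J ν) {d : ℕ} (hd : finrank F U ≤ d) :
    ∃ A : Subgroup G, (∀ x ∈ A, ∀ y ∈ A, x * y = y * x) ∧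
      A.index ≤ jbnd d J ν (ν * (2 * J) + 1) (J + 1 + 2 * d) := by
  suffices key : ∀ k M, J + 1 + 2 * d ≤ M → ν * (2 * J) * (Ys σ M).ncard < k * Nat.card G →
      ∃ A : Subgroup G, (∀ x ∈ A, ∀ y ∈ A, x * y = y * x) ∧ A.index ≤ jbnd d J ν k M from
    key _ _ le_rfl ((Nat.mul_le_mul_left _ (Set.ncard_le_card _)).trans_lt
      (Nat.mul_lt_mul_of_pos_right (by omega) Nat.card_pos))
  intro k
  induction k with
  | zero => intro M _ h; omega
  | succ k ih =>
    intro M h1 h2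
    rcases h.step (M := M) (K := M ^ d * J * ν) (by omega) (by omega)
      (by gcongr; omega) with ⟨A, a1, a2⟩ | h3
    · exact ⟨A, a1, a2.trans (Nat.le_add_right _ _)⟩
    · obtain ⟨A, a1, a2⟩ := ih (M + 2 * J * (M ^ d * J * ν)!) (h1.trans (Nat.le_add_right _ _))
        (by rw [add_mul] at h2; omega)
      exact ⟨A, a1, a2.trans (Nat.le_add_left _ _)⟩

end Cfsg.Agent.H34
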