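import Cfsg.Agent.H34.JBF3

/-! The Brauer-Feit analogue of Jordan's theorem, by Jordan's own induction. -/

set_option autoImplicit false

namespace Cfsg.Agent.H34

open Module Subgroup
open scoped Pointwise Nat commutatorElement

universe u v

theorem exists_pprime_part {H : Type*} [Group H] [Finite H] {p m : ℕ} [hp : Fact p.Prime]
    (hm : ¬ p ^ (m + 1) ∣ Nat.card H) {C : Subgroup H}
    (h : ∀ x ∈ C, ∀ y ∈ C, ⁅x, y⁆ ^ p = 1 ∧ Commute ⁅x, y⁆ x) :
    ∃ K : Subgroup H, (∀ x ∈ K, ∀ y ∈ K, x * y = y * x) ∧ (∀ x ∈ K, ∃ k, ¬ p ∣ k ∧ x ^ k = 1) ∧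
      K ≤ C ∧ K.relIndex C ≤ p ^ m := by
  have h1 : ∀ x ∈ C, ∀ y ∈ C, ∀ k, ¬ p ∣ k → x ^ k = 1 → Commute x y := fun x hx y hy k hk e => by
    have h2 : ∀ j : ℕ, x ^ j * y = ⁅x, y⁆ ^ j * y * x ^ j := fun j => by
      induction j with
      | zero => simp
      | succ j ih =>
        rw [pow_succ' x, mul_assoc, ih, ← mul_assoc, ← mul_assoc, ← ((h x hx y hy).2.pow_left j).eq,
          pow_succ, commutatorElement_def]
        group
    have h3 := h2 k
    rw [e, one_mul, mul_one, right_eq_mul] at h3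
    exact commutatorElement_eq_one_iff_commute.1 (orderOf_eq_one_iff.1 (Nat.eq_one_of_dvd_coprimes
      (hp.out.coprime_iff_not_dvd.2 hk) (orderOf_dvd_of_pow_eq_one (h x hx y hy).1)
      (orderOf_dvd_of_pow_eq_one h3)))
  let K : Subgroup H :=
    { carrier := {x | x ∈ C ∧ ∃ k, ¬ p ∣ k ∧ x ^ k = 1}
      mul_mem' := by
        rintro a b ⟨ha, k, k0, hk⟩ ⟨hb, l, l0, hl⟩
        exact ⟨mul_mem ha hb, k * l, fun e => (hp.out.dvd_mul.1 e).elim k0 l0, by
          rw [(h1 a ha b hb k k0 hk).mul_pow, pow_mul, hk, pow_mul', hl]; simp⟩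
      one_mem' := ⟨one_mem _, 1, hp.out.not_dvd_one, by simp⟩
      inv_mem' := by
        rintro a ⟨ha, k, k0, hk⟩
        exact ⟨inv_mem ha, k, k0, by simp [hk]⟩ }
  refine ⟨K, fun x ⟨hx, k, k0, hk⟩ y hy => h1 x hx y hy.1 k k0 hk, fun x hx => hx.2,
    fun x hx => hx.1, ?_⟩
  have : (K.subgroupOf C).Normal := ⟨fun x ⟨hx, k, k0, hk⟩ g =>
    ⟨(g * x * g⁻¹).2, k, k0, by simpa using hk⟩⟩
  have h2 : IsPGroup p (C ⧸ K.subgroupOf C) := by
    rintro ⟨x⟩
    obtain ⟨a, k, k0, hk⟩ := Nat.exists_eq_pow_mul_and_not_dvd (orderOf_pos (x : H)).ne' p hp.out.ne_one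
    exact ⟨a, (QuotientGroup.eq_one_iff (x ^ p ^ a)).2 ⟨(x ^ p ^ a).2, k, k0, by
      change (x.1 ^ p ^ a) ^ k = 1
      rw [← pow_mul, ← hk, pow_orderOf_eq_one]⟩⟩
  obtain ⟨j, hj⟩ := IsPGroup.iff_card.1 h2
  refine hj.trans_le (Nat.pow_le_pow_right hp.out.pos (Nat.le_of_lt_succ (lt_of_not_ge fun e => hm ?_)))
  exact ((pow_dvd_pow p e).trans (hj ▸ (K.subgroupOf C).index_dvd_card)).trans C.card_subgroup_dvd_card

/-- the inductive statement -/
def JP (p m n b : ℕ) : Prop :=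
  ∀ (G : Type u) [Group G] [Finite G] (F : Type v) [Field F] [IsAlgClosed F] [CharP F p]
    (V : Type v) [AddCommGroup V] [Module F V] [FiniteDimensional F V] (ρ : Representation F G V),
    finrank F V ≤ n → ¬ p ^ (m + 1) ∣ Nat.card G →
      ∃ A : Subgroup G, A.index ≤ b ∧ ∀ x ∈ A, ∀ y ∈ A, ρ x * ρ y = ρ y * ρ x

section
variable {p m n b : ℕ} [hp : Fact p.Prime] {G : Type u} [Group G] [Finite G] {F : Type v} [Field F]
  [IsAlgClosed F] [CharP F p] {V : Type v} [AddCommGroup V] [Module F V] [FiniteDimensional F V]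
  {ρ : Representation F G V}

theorem JP.reducible (h : JP.{u, v} p m n b) (hρ : Function.Injective ρ) (hV : finrank F V ≤ n + 1)
    (hm : ¬ p ^ (m + 1) ∣ Nat.card G) {W : Submodule F V} (h0 : W ≠ ⊥) (h1 : W ≠ ⊤)
    (hW : ∀ g, W ≤ W.comap (ρ g)) :
    ∃ T : Subgroup G, AbP F T ∧ T.index ≤ p ^ m * (b * b * (p ^ m)!) := by
  obtain ⟨A, a1, a2⟩ := h G F W (ρ.subrepresentation W hW)
    (by have := Submodule.finrank_lt h1; omega) hm
  obtain ⟨B, b1, b2⟩ := h G F (V ⧸ W) (ρ.quotient W hW) (by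
    have := W.finrank_quotient_add_finrank
    have := Submodule.one_le_finrank_iff.2 h0
    omega) hm
  let U := (ρ.subrepresentation W hW).ker ⊓ (ρ.quotient W hW).ker
  have hU : ∀ z ∈ U, z ^ p = 1 := fun z hz => hρ (LinearMap.ext fun y => by
    have e1 : ρ z y - y ∈ W := (Submodule.Quotient.eq W).1 (LinearMap.congr_fun hz.2 (W.mkQ y))
    have e2 : ρ z (ρ z y - y) = ρ z y - y := congrArg Subtype.val (LinearMap.congr_fun hz.1 ⟨_, e1⟩)
    have e3 : ∀ k : ℕ, ρ (z ^ k) y = y + (k : F) • (ρ z y - y) := fun k => by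
      induction k with
      | zero => simp
      | succ k ih =>
        rw [pow_succ', map_mul, Module.End.mul_apply, ih, map_add, map_smul, e2, Nat.cast_succ,
          add_smul, one_smul]
        abel
    rw [e3]
    simp)
  obtain ⟨j, hj⟩ := IsPGroup.iff_card.1 (show IsPGroup p U from fun z => ⟨1, Subtype.ext (by
    simpa using hU z z.2)⟩)
  have h2 : Nat.card U ≤ p ^ m := hj.trans_le (Nat.pow_le_pow_right hp.out.pos (Nat.le_of_lt_succ
    (lt_of_not_ge fun e => hm ((pow_dvd_pow p e).trans (hj ▸ U.card_subgroup_dvd_card)))))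
  let c : G →* Equiv.Perm U := (MulAut.toPerm U).comp MulAut.conjNormal
  have h3 : c.ker.index ≤ (p ^ m)! := by
    rw [index_ker]
    exact (c.range.card_le_card_group.trans_eq (Nat.card_perm)).trans (Nat.factorial_le h2)
  obtain ⟨K, k1, k2, k3, k4⟩ := exists_pprime_part hm (C := (A ⊓ B) ⊓ c.ker) fun x hx y hy => by
    have key : ∀ {M : Type v} [Monoid M] (f : G →* M), f x * f y = f y * f x → ⁅x, y⁆ ∈ f.ker :=
      fun f e => by
        rw [MonoidHom.mem_ker, commutatorElement_def, map_mul, map_mul, map_mul, e]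
        simp [mul_assoc, ← map_mul]
    have e1 : ⁅x, y⁆ ∈ U := ⟨key _ (a2 x hx.1.1 y hy.1.1), key _ (b2 x hx.1.2 y hy.1.2)⟩
    exact ⟨hU _ e1, (mul_inv_eq_iff_eq_mul.1
      (congrArg (fun σ : Equiv.Perm U => (σ ⟨_, e1⟩ : G)) hx.2)).symm⟩
  refine ⟨K, ⟨k1, fun x hx => (k2 x hx).imp fun k hk =>
    ⟨fun e => hk.1 ((CharP.cast_eq_zero_iff F p k).1 e), hk.2⟩⟩, ?_⟩
  rw [← relIndex_mul_index k3]
  exact Nat.mul_le_mul k4 (index_inf_le.trans
    (Nat.mul_le_mul (index_inf_le.trans (Nat.mul_le_mul a1 b1)) h3))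

omit [IsAlgClosed F] [CharP F p] [Finite G] in
theorem mem_ker_linHom {z : G} : z ∈ (ρ.linHom ρ).ker ↔ ∃ c : F, ∀ y, ρ z y = c • y := by
  constructor
  · intro h
    obtain ⟨c, _, hc⟩ := Module.End.mem_center_iff.1 (Semigroup.mem_center_iff.2 fun f => by
      have := LinearMap.congr_fun h f
      ext y
      simpa [Representation.linHom_apply] using (LinearMap.congr_fun this (ρ z y)).symm :
      ρ z ∈ Set.center _)
    exact ⟨c, fun y => by rw [hc]; rfl⟩
  · rintro ⟨c, hc⟩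
    ext f y
    rw [Representation.linHom_apply, LinearMap.comp_apply, hc, LinearMap.comp_apply, ← map_smul, ← hc]
    simp

theorem JP.jset (h : JP.{u, v} p m n b) (hρ : Function.Injective ρ) (hV : finrank F V ≤ n + 1)
    (hm : ¬ p ^ (m + 1) ∣ Nat.card G) [Nontrivial V] :
    JSet (ρ.linHom ρ) (p ^ m * (b * b * (p ^ m)!)) ((n + 2) ^ (n + 1)) := by
  classical
  refine ⟨fun g => ⟨ρ g, fun x => ?_⟩, fun g hg => ?_, fun A hA =>
    (relIndex_centralizer_normalizer_le hρ hA).trans ((Nat.pow_le_pow_left (by omega) _).trans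
      (Nat.pow_le_pow_right (by omega) hV)), fun g => ?_⟩
  · rw [← mul_inv_eq_iff_eq_mul, ← hρ.eq_iff, map_mul, map_mul]
    rfl
  · obtain ⟨c, hc⟩ := Module.End.exists_eigenvalue (ρ g)
    obtain ⟨T, t1, t2⟩ := h.reducible (ρ := ρ.comp (centralizer {g}).subtype)
      (hρ.comp Subtype.val_injective) hV (fun e => hm (e.trans (card_subgroup_dvd_card _))) hc
      (fun e => hg (mem_ker_linHom.2 ⟨c, fun y => Module.End.mem_eigenspace_iff.1 (e.ge trivial)⟩))
      fun x y hy => Module.End.mem_eigenspace_iff.2 (by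
        refine (rep_comm_apply (mem_centralizer_singleton_iff.1 x.2).symm y).trans ?_
        rw [Module.End.mem_eigenspace_iff.1 hy, map_smul]
        rfl)
    refine ⟨T.map (centralizer {g}).subtype, map_subtype_le _, ⟨?_, ?_⟩, by
      rwa [relIndex, subgroupOf, comap_map_eq_self_of_injective Subtype.val_injective]⟩
    · rintro _ ⟨x, hx, rfl⟩ _ ⟨y, hy, rfl⟩
      exact congrArg Subtype.val (t1.1 x hx y hy)
    · rintro _ ⟨x, hx, rfl⟩
      exact (t1.2 x hx).imp fun k hk => ⟨hk.1, congrArg Subtype.val hk.2⟩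
  · have h1 : ∀ x : (centralizer {(g : G ⧸ (ρ.linHom ρ).ker)}).comap (QuotientGroup.mk' _),
        ∃ c : Polynomial.nthRootsFinset (finrank F V) (1 : F), ∀ y, ρ ⁅g, x.1⁆ y = c.1 • y := fun x => by
      obtain ⟨c, hc⟩ := mem_ker_linHom.1 ((QuotientGroup.eq_one_iff ⁅g, x.1⁆).1
        (commutatorElement_eq_one_iff_mul_comm.2 (mem_centralizer_singleton_iff.1 x.2).symm))
      refine ⟨⟨c, (Polynomial.mem_nthRootsFinset finrank_pos _).2 ?_⟩, hc⟩
      have h2 := (map_commutatorElement ((LinearMap.det.comp ρ).toHomUnits) g x.1).trans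
        (commutatorElement_eq_one_iff_mul_comm.2 (mul_comm _ _))
      have h3 : LinearMap.det (ρ ⁅g, x.1⁆) = 1 := congrArg Units.val h2
      simpa [show ρ ⁅g, x.1⁆ = c • LinearMap.id from LinearMap.ext hc] using h3
    choose f hf using h1
    refine (relIndex_le_of_map f fun x y e => ?_).trans ?_
    · have h2 : ⁅g, x.1⁆ = ⁅g, y.1⁆ := hρ (LinearMap.ext fun v => by rw [hf, hf, e])
      rw [mem_centralizer_singleton_iff]
      calc _ = (x : G)⁻¹ * g * (g⁻¹ * ⁅g, y.1⁆⁻¹ * g) * y := by group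
        _ = _ := by rw [← h2]; group
    · rw [Nat.card_eq_fintype_card, Fintype.card_coe]
      refine ((Multiset.toFinset_card_le _).trans (Polynomial.card_nthRoots _ _)).trans
        (hV.trans ((Nat.le_succ _).trans (Nat.le_self_pow (by omega) _)))

end

theorem exists_jp (p m : ℕ) [Fact p.Prime] (n : ℕ) : ∃ b, 0 < b ∧ JP.{u, v} p m n b := by
  induction n with
  | zero =>
    refine ⟨1, one_pos, fun G _ _ F _ _ _ V _ _ _ ρ h _ => ⟨⊤, by simp, fun _ _ _ _ => ?_⟩⟩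
    have := finrank_zero_iff.1 (Nat.le_zero.1 h)
    exact Subsingleton.elim _ _
  | succ n ih =>
    obtain ⟨b, -, hb⟩ := ih
    refine ⟨jbnd ((n + 1) * (n + 1)) (p ^ m * (b * b * (p ^ m)!)) ((n + 2) ^ (n + 1))
      ((n + 2) ^ (n + 1) * (2 * (p ^ m * (b * b * (p ^ m)!))) + 1)
      (p ^ m * (b * b * (p ^ m)!) + 1 + 2 * ((n + 1) * (n + 1))) + 1, Nat.succ_pos _,
      fun G _ _ F _ _ _ V _ _ _ ρ h hm => ?_⟩
    rcases subsingleton_or_nontrivial V with _ | _
    · exact ⟨⊤, by simp, fun _ _ _ _ => Subsingleton.elim _ _⟩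
    let ρ' : Representation F (G ⧸ ρ.ker) V := QuotientGroup.lift _ ρ le_rfl
    obtain ⟨A, a1, a2⟩ := (hb.jset (ρ := ρ') ((injective_iff_map_eq_one _).2 (by
      rintro ⟨x⟩ hx
      exact (QuotientGroup.eq_one_iff x).2 hx)) h
      fun e => hm (e.trans ρ.ker.index_dvd_card)).exists_abelian (d := (n + 1) * (n + 1)) (by
        rw [Module.finrank_linearMap]
        exact Nat.mul_le_mul h h)
    refine ⟨A.comap (QuotientGroup.mk' _), ?_, fun x hx y hy => ?_⟩
    · rw [index_comap_of_surjective _ (QuotientGroup.mk'_surjective _)]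
      omega
    · simpa [ρ'] using congrArg ρ' (a1 _ hx _ hy)

end Cfsg.Agent.H34
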