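import Cfsg.Agent.H34.FongP
import Cfsg.Agent.H87.Dict5
import Cfsg.Agent.H89.GlaubP
import Cfsg.Agent.H71.CharP

/-!
Blocks of `C(R)` inducing the block `Irr(G | θ)`: they cover the Glauberman correspondent of `θ`.
-/

set_option autoImplicit false
set_option linter.unusedSectionVars false

open scoped ComplexConjugate

namespace Cfsg.Agent.H34

open Cfsg Cfsg.Agent.H32 Cfsg.Agent.H87

variable {G K C Q : Type*} [Group G] [Group K] [Group C] [Group Q] {M : Ideal AlgInt} {p : ℕ}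
  [hMm : M.IsMaximal] [hp : Fact p.Prime]

theorem exists_indBlk_Ce [Finite G] (hM : IsPModular p M) {P : Subgroup G} (hP : IsPGroup p P)
    {c : Set (IrrCharacter (Ce P))} (hc : IsPBlock M c) : ∃ B, IndBlk M (Ce P).subtype c B := by
  have hb := (emb_subtype (Ce P)).blk_idm hc
  obtain ⟨B, hB, h⟩ := exists_ind hM (emb_subtype (Ce P)) emb_id le_top hP le_top inf_le_right
    (inv_of_le_Ce_fix le_rfl) hc (by rw [Br_of_supp hb.supp]; exact hb.ne_zero)
  exact ⟨B, indBlk_subtype.mpr (isInducedBlock_iff.mpr ⟨hc, hB, h⟩)⟩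

theorem indBlk_Ce_iff [Finite G] (hM : IsPModular p M) {P : Subgroup G} (hP : IsPGroup p P)
    [Fintype (Ce P)] {c : Set (IrrCharacter (Ce P))} (hc : IsPBlock M c)
    {B : Set (IrrCharacter G)} (hB : IsPBlock M B) {ξ : IrrCharacter (Ce P)} (hξ : ξ ∈ c) :
    IndBlk M (Ce P).subtype c B ↔ om ξ (fun k : Ce P => blockCoeff B k) ∉ locMax M := by
  refine ⟨fun h => not_mem_locMax_of_sub_one_mem (h.om_blockCoeff_sub_one hM hξ), fun h => ?_⟩
  obtain ⟨B', h'⟩ := exists_indBlk_Ce hM hP hc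
  rwa [← h'.eq_of_om_not_mem hM hB hξ h]

omit hMm hp in
theorem om_blockCoeff_singleton_comp [Fintype C] [Finite K] (j : C →* K) (θ : IrrCharacter K)
    (η : IrrCharacter C) : om η (fun c => blockCoeff {θ} (j c)) =
      ((Nat.card C * charDegree (θ : K → ℂ) * H89.mlt j (θ : K → ℂ) (η : C → ℂ) : ℕ) : ℂ) *
        ((Nat.card K * charDegree (η : C → ℂ) : ℕ) : ℂ)⁻¹ := by
  have h1 := H89.mlt_irr j θ η
  have h2 : ∑ c, conj ((θ : K → ℂ) (j c)) * (η : C → ℂ) c =
      Nat.card C * H89.mlt j (θ : K → ℂ) (η : C → ℂ) := by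
    have h3 := congrArg conj h1
    rw [classInner, map_mul, map_sum, map_natCast, map_inv₀, map_natCast] at h3
    simp only [map_mul, Complex.conj_conj] at h3
    rw [← h3, Nat.card_eq_fintype_card, ← mul_assoc, mul_inv_cancel₀ (by simp), one_mul]
  rw [om_eq_div]
  simp only [blockCoeff_singleton, mul_assoc]
  rw [← Finset.mul_sum, ← Finset.mul_sum, h2]
  push_cast
  rw [irr_degree_cast, irr_degree_cast]
  ring

theorem om_blockCoeff_singleton_mem_iff (hM : IsPModular p M) [Fintype C] [Finite K]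
    (hK : ¬ p ∣ Nat.card K) (hC : ¬ p ∣ Nat.card C) (j : C →* K) (θ : IrrCharacter K)
    (η : IrrCharacter C) : om η (fun c => blockCoeff {θ} (j c)) ∈ locMax M ↔
      (H89.mlt j (θ : K → ℂ) (η : C → ℂ) : ZMod p) = 0 := by
  have h1 : ¬ p ∣ Nat.card K * charDegree (η : C → ℂ) := fun h =>
    (hp.out.dvd_mul.mp h).elim hK fun h => hC (h.trans (irr_degree_dvd_card η))
  rw [om_blockCoeff_singleton_comp, mul_mem_locMax_iff (natCast_mem _ _)
    (inv_natCast_mem_locRing hM h1), natCast_mem_locMax_iff hM, ZMod.natCast_eq_zero_iff,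
    hp.out.dvd_mul, hp.out.dvd_mul]
  have h2 := inv_not_mem_locMax (M := M) (natCast_mem _ (Nat.card K * charDegree (η : C → ℂ)))
    (Nat.cast_ne_zero.mpr fun h => h1 (h ▸ dvd_zero p))
  have h3 : ¬ p ∣ charDegree (θ : K → ℂ) := fun h => hK (h.trans (irr_degree_dvd_card θ))
  tauto

omit hMm hp in
theorem Ce_le_No_inf (K R : Subgroup G) [K.Normal] : Ce R ≤ No (K ⊓ Ce R) :=
  (le_inf (Subgroup.le_normalizer_of_normal (H := K)) Subgroup.le_normalizer).trans
    (Subgroup.inf_normalizer_le_normalizer_inf)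

/-- The blocks of `C(R)` inducing `Irr(G | θ)` are those covering the Glauberman
correspondent of `θ`. -/
theorem exists_glauberman_covers (hM : IsPModular p M) [Fintype G] {K : Subgroup G} [K.Normal]
    [Fintype K] (hK : ¬ p ∣ Nat.card K) {θ : IrrCharacter K} (hinv : (NEmb.ofNormal K).Inv {θ})
    (hB : IsPBlock M (overSet K.subtype {θ})) {R : Subgroup G} (hR : IsPGroup p R)
    [Fintype (Ce R)] [Fintype ↥(K ⊓ Ce R)] :
    ∃ η : IrrCharacter ↥(K ⊓ Ce R),
      (H89.mlt (Subgroup.inclusion inf_le_left) (θ : K → ℂ) (η : ↥(K ⊓ Ce R) → ℂ) : ZMod p) ≠ 0 ∧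
      (NEmb.incl inf_le_right (Ce_le_No_inf K R)).Inv {η} ∧
      ∀ f, IsPBlock M f → (IndBlk M (Ce R).subtype f (overSet K.subtype {θ}) ↔
        Covers (NEmb.incl inf_le_right (Ce_le_No_inf K R)).ι f {η}) := by
  have hθ : ∀ g (k : K), (θ : K → ℂ) ((NEmb.ofNormal K).cj g k) = (θ : K → ℂ) k := fun g k => by
    rw [← NEmb.act_apply, hinv g θ rfl]
  have hS : H89.SInv R K (θ : K → ℂ) := fun s _ g g' hg => by
    rw [← hθ s g]
    exact congrArg _ (Subtype.ext (hg.trans ((NEmb.ofNormal K).ι_cj s g).symm))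
  obtain ⟨k, hk⟩ := hR.exists_card_eq
  have hc := H89.gcorr_pgroup hp.out R hR K (le_top.trans (top_le_No_of_normal K))
    (hk ▸ ((Nat.Prime.coprime_iff_not_dvd hp.out).mpr hK).symm.pow_right k) _ rfl inf_le_left
  obtain ⟨η, hη⟩ := hc.exists_ne_zero hp.out θ hS
  set E := NEmb.incl inf_le_right (Ce_le_No_inf K R) with hE
  have hK0 : ¬ p ∣ Nat.card ↥(K ⊓ Ce R) := fun h =>
    hK (h.trans (Subgroup.card_dvd_of_le inf_le_left))
  have hi : E.Inv {η} := by
    rintro g _ rfl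
    refine Subtype.ext (funext fun n => ?_)
    rw [NEmb.act_apply]
    refine (hc.fixed_iff ((NEmb.ofNormal K).cj g) (E.cj g) (fun c => Subtype.ext ?_) hS ?_ hη).mp
      (hθ g) n
    · exact (incl_cj_coe _ _ g c).trans 
        ((NEmb.ofNormal K).ι_cj g (Subgroup.inclusion inf_le_left c)).symm
    · simpa only [hθ] using hS
  have key : ∀ (ξ : IrrCharacter (Ce R)) (η' : IrrCharacter ↥(K ⊓ Ce R)),
      Over E.ι (ξ : Ce R → ℂ) (η' : ↥(K ⊓ Ce R) → ℂ) →
      (om ξ (fun k : Ce R => blockCoeff (overSet K.subtype {θ}) k) ∉ locMax M ↔ η' = η) := by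
    intro ξ η' h
    rw [h.om_eq E.inj (a := fun k : Ce R => blockCoeff (overSet K.subtype {θ}) k)
      (isClassFunction_comp (blockCoeff_isClassFunction _) (Ce R).subtype)
      (fun g hg => blockCoeff_overSet_of_not_mem (E := NEmb.ofNormal K) hinv
        fun ⟨x, hx⟩ => hg ⟨⟨g, by rw [← show (x : G) = g from hx]; exact x.2, g.2⟩, rfl⟩)]
    have h1 : (fun n : ↥(K ⊓ Ce R) => blockCoeff (overSet K.subtype {θ}) (E.ι n : G)) =
        fun n => blockCoeff {θ} (Subgroup.inclusion inf_le_left n) := funext fun n =>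
      blockCoeff_overSet_ι (E := NEmb.ofNormal K) hinv (Subgroup.inclusion inf_le_left n)
    rw [h1, om_blockCoeff_singleton_mem_iff hM hK hK0]
    exact ⟨fun h => hc.unique hS h hη, fun h => h ▸ hη⟩
  refine ⟨η, hη, hi, fun f hf => ⟨fun h => ?_, ?_⟩⟩
  · obtain ⟨ξ, hξ⟩ := IsPBlock.nonempty hf
    obtain ⟨η', h'⟩ := exists_under E.ι ξ
    exact ⟨ξ, hξ, η', (key ξ η' h').mp ((indBlk_Ce_iff hM hR hf hB hξ).mp h), h'⟩
  · rintro ⟨ξ, hξ, η', h1, h'⟩
    exact (indBlk_Ce_iff hM hR hf hB hξ).mpr ((key ξ η' h').mpr h1)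

omit hMm in
theorem isCharP_Ce [Finite Q] (hQ : H22.IsCharP p Q) {R : Subgroup Q} (hR : IsPGroup p R) :
    H22.IsCharP p (Ce R) := by
  have h := H71.charPIn_inf_centralizer (H72.charPIn_top_iff.mpr hQ) hR le_top
  rw [top_inf_eq] at h
  exact (H72.charPIn_iff _).mp h

/-- The block `Irr(G | θ)` is of principal type when `G/K` has characteristic `p`. -/
theorem existsUnique_indBlk_Ce (hM : IsPModular p M) [Fintype G] {K : Subgroup G} [K.Normal]
    [Fintype K] (hK : ¬ p ∣ Nat.card K) {θ : IrrCharacter K} (hinv : (NEmb.ofNormal K).Inv {θ})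
    (hQ : H22.IsCharP p (G ⧸ K)) {R : Subgroup G} (hR : IsPGroup p R) :
    ∃! f, IndBlk M (Ce R).subtype f (overSet K.subtype {θ}) := by
  have := Fintype.ofFinite (Ce R)
  have := Fintype.ofFinite ↥(K ⊓ Ce R)
  have hB := isPBlock_overSet_of_isCharP hM hK hinv (QuotientGroup.mk'_surjective K)
    (by rw [QuotientGroup.ker_mk']; exact (Subgroup.range_subtype _).symm) hQ
  obtain ⟨η, -, hi, h⟩ := exists_glauberman_covers hM hK hinv hB hR
  have hK0 : ¬ p ∣ Nat.card ↥(K ⊓ Ce R) := fun h =>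
    hK (h.trans (Subgroup.card_dvd_of_le inf_le_left))
  have hk : (Nat.card (QuotientGroup.mk' K).ker).Coprime p := by
    rw [QuotientGroup.ker_mk']; exact ((Nat.Prime.coprime_iff_not_dvd hp.out).mpr hK).symm
  have hf := isPBlock_overSet_of_isCharP hM hK0 hi
    (H22.centralizerMap_surjective _ (QuotientGroup.mk'_surjective K) hk hR)
    (by rw [H22.ker_centralizerMap, range_incl, QuotientGroup.ker_mk',
      Subgroup.inf_subgroupOf_right]) (isCharP_Ce hQ (hR.map _))
  refine ⟨_, (h _ hf).mpr (covers_of_subset hf subset_rfl), fun f hf' => ?_⟩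
  exact ((h f hf'.1).mp hf').eq_overSet hM (isPBlock_singleton hM hK0 η) hf'.1 hf

end Cfsg.Agent.H34
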